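import Mathlib
import Cfsg.Agent.Lead.FS

/-!
# Frobenius–Schur indicators, part 2 (lead)

* `fs_rep_decomp`: for a character `χ` of a representation on `Fin n → ℂ` there are naturals
  `r₂ ≤ r₁` with `|G|⁻¹ ∑ χ(g)² = r₁` and `|G|⁻¹ ∑ χ(g²) = r₁ - 2 r₂`.
* `fs_ne_zero_real`: an irreducible character with nonzero indicator is real valued.
* `fs_of_real`: a real-valued irreducible character has indicator `1` or `-1`.
* `fs_cases`: the indicator of an irreducible character is `0`, `1` or `-1`.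
-/

set_option autoImplicit false

namespace Cfsg.Agent.Lead.FS

open scoped Matrix Kronecker
open Cfsg Cfsg.Agent.Helper25 Cfsg.Agent.Helper7

/-- The trace of an idempotent complex matrix is the dimension of its range. -/
theorem trace_idem_range {ι : Type*} [Fintype ι] [DecidableEq ι] (M : Matrix ι ι ℂ)
    (hM : M * M = M) :
    M.trace = (Module.finrank ℂ (LinearMap.range (Matrix.toLin' M)) : ℂ) := by
  have hf : Matrix.toLin' M ∘ₗ Matrix.toLin' M = Matrix.toLin' M := by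
    rw [← Matrix.toLin'_mul, hM]
  have hp : LinearMap.IsProj (LinearMap.range (Matrix.toLin' M)) (Matrix.toLin' M) := by
    refine ⟨fun x => LinearMap.mem_range_self _ x, ?_⟩
    rintro x ⟨y, rfl⟩
    exact congrArg (fun f : (ι → ℂ) →ₗ[ℂ] (ι → ℂ) => f y) hf
  rw [← Matrix.trace_toLin'_eq, hp.trace]

variable {G : Type*} [Group G]

/-- Decomposition of the Frobenius–Schur indicator. -/
theorem fs_rep_decomp [Fintype G] {n : ℕ} (ρ : Representation ℂ G (Fin n → ℂ)) :
    ∃ r₁ r₂ : ℕ, r₂ ≤ r₁ ∧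
      (Nat.card G : ℂ)⁻¹ * ∑ g : G, ρ.character g * ρ.character g = r₁ ∧
      (Nat.card G : ℂ)⁻¹ * ∑ g : G, ρ.character (g * g) = (r₁ : ℂ) - 2 * r₂ := by
  classical
  set A : G → Matrix (Fin n) (Fin n) ℂ := repMat ρ with hA
  set B : G → Matrix (Fin n × Fin n) (Fin n × Fin n) ℂ := fun g => A g ⊗ₖ A g with hB
  have hBmul : ∀ g h, B (g * h) = B g * B h := by
    intro g h
    simp only [hB, hA, repMat_mul]
    exact Matrix.mul_kronecker_mul _ _ _ _
  set c : ℂ := (Nat.card G : ℂ)⁻¹ with hc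
  set E := c • ∑ g, B g with hE
  have hEE : E * E = E := avg_idem B hBmul
  have hES : swapM (Fin n) * E = E * swapM (Fin n) := by
    simp only [hE, Matrix.mul_smul, Matrix.smul_mul, Finset.mul_sum, Finset.sum_mul]
    congr 1
    exact Finset.sum_congr rfl (fun g _ => swap_comm (A g))
  set P : Matrix (Fin n × Fin n) (Fin n × Fin n) ℂ := (1 / 2 : ℂ) • (1 - swapM (Fin n)) with hP
  have hPP : P * P = P := by
    simp only [hP, Matrix.mul_smul, Matrix.smul_mul, mul_sub, sub_mul, mul_one,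
      one_mul, swap_sq]
    have h3 : (1 / 2 : ℂ) • ((1 : Matrix (Fin n × Fin n) (Fin n × Fin n) ℂ) - swapM (Fin n)) -
        (1 / 2 : ℂ) • (swapM (Fin n) - 1) = 1 - swapM (Fin n) := by
      rw [← smul_sub, show (1 : Matrix (Fin n × Fin n) (Fin n × Fin n) ℂ) - swapM (Fin n) -
        (swapM (Fin n) - 1) = (2 : ℂ) • (1 - swapM (Fin n)) by rw [two_smul]; abel, smul_smul]
      norm_num
    rw [h3]
  have hEP : E * P = P * E := by
    simp only [hP, Matrix.mul_smul, Matrix.smul_mul, mul_sub, sub_mul, mul_one, one_mul, hES]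
  have hEPEP : (E * P) * (E * P) = E * P := by
    calc (E * P) * (E * P) = E * (P * E) * P := by simp only [mul_assoc]
      _ = E * (E * P) * P := by rw [hEP]
      _ = (E * E) * (P * P) := by simp only [mul_assoc]
      _ = E * P := by rw [hEE, hPP]
  have hr₁ := trace_idem_range E hEE
  have hr₂ := trace_idem_range (E * P) hEPEP
  refine ⟨Module.finrank ℂ (LinearMap.range (Matrix.toLin' E)),
    Module.finrank ℂ (LinearMap.range (Matrix.toLin' (E * P))), ?_, ?_, ?_⟩
  · apply Submodule.finrank_mono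
    rw [Matrix.toLin'_mul]
    exact LinearMap.range_comp_le_range _ _
  · rw [← hr₁]
    simp only [hE, Matrix.trace_smul, Matrix.trace_sum, smul_eq_mul, hB, Matrix.trace_kronecker,
      hA, repMat_trace]
  · have htES : (E * swapM (Fin n)).trace = c * ∑ g, ρ.character (g * g) := by
      simp only [hE, Matrix.smul_mul, Matrix.trace_smul, Finset.sum_mul, Matrix.trace_sum,
        smul_eq_mul, hB, trace_kron_swap, hA, ← repMat_mul, repMat_trace]
    have htEP : (E * P).trace = (1 / 2) * (E.trace - (E * swapM (Fin n)).trace) := by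
      simp only [hP, Matrix.mul_smul, Matrix.trace_smul, mul_sub, mul_one, Matrix.trace_sub,
        smul_eq_mul]
    rw [← htES, ← hr₁, ← hr₂, htEP]
    ring

/-- Orthogonality: `∑ χ(g) conj χ(g) = |G|`. -/
theorem irr_sum_mul_conj [Fintype G] (χ : IrrCharacter G) :
    ∑ g : G, (χ : G → ℂ) g * (starRingEnd ℂ) ((χ : G → ℂ) g) = (Nat.card G : ℂ) := by
  have hG0 : (Nat.card G : ℂ) ≠ 0 := card_ne_zero
  have h := irr_classInner χ χ
  rw [if_pos rfl] at h
  unfold classInner at h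
  field_simp at h
  rw [h]

/-- The three numbers attached to an irreducible character. -/
theorem irr_fs_decomp [Fintype G] (χ : IrrCharacter G) :
    ∃ r₁ r₂ : ℕ, r₂ ≤ r₁ ∧ r₁ ≤ 1 ∧
      ∑ g : G, (χ : G → ℂ) g * (χ : G → ℂ) g = (r₁ : ℂ) * (Nat.card G : ℂ) ∧
      (Nat.card G : ℂ)⁻¹ * ∑ g : G, (χ : G → ℂ) (g * g) = (r₁ : ℂ) - 2 * r₂ := by
  have hG0 : (Nat.card G : ℂ) ≠ 0 := card_ne_zero
  obtain ⟨n, ρ, hρ, hχ⟩ := χ.2
  obtain ⟨r₁, r₂, h12, h1, h2⟩ := fs_rep_decomp ρ
  rw [hχ] at h1 h2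
  have hsum : ∑ g : G, (χ : G → ℂ) g * (χ : G → ℂ) g = (r₁ : ℂ) * (Nat.card G : ℂ) := by
    rw [← h1]
    field_simp
  refine ⟨r₁, r₂, h12, ?_, hsum, h2⟩
  -- `r₁ ≤ 1` by comparing real parts with the norm sum
  have horth := irr_sum_mul_conj χ
  have hre : ∀ g : G, ((χ : G → ℂ) g * (χ : G → ℂ) g).re ≤
      ((χ : G → ℂ) g * (starRingEnd ℂ) ((χ : G → ℂ) g)).re := by
    intro g
    rw [Complex.mul_conj, Complex.ofReal_re, Complex.mul_re, Complex.normSq_apply]
    nlinarith [sq_nonneg ((χ : G → ℂ) g).im]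
  have h3 : (∑ g : G, (χ : G → ℂ) g * (χ : G → ℂ) g).re ≤
      (∑ g : G, (χ : G → ℂ) g * (starRingEnd ℂ) ((χ : G → ℂ) g)).re := by
    rw [Complex.re_sum, Complex.re_sum]
    exact Finset.sum_le_sum (fun g _ => hre g)
  rw [hsum, horth] at h3
  have h4 : ((r₁ : ℂ) * (Nat.card G : ℂ)).re = (r₁ : ℝ) * (Nat.card G : ℝ) := by
    rw [← Nat.cast_mul, Complex.natCast_re]
    push_cast
    ring
  rw [h4, Complex.natCast_re] at h3
  have hGpos : (0 : ℝ) < Nat.card G := by exact_mod_cast Nat.card_pos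
  have h5 : (r₁ : ℝ) ≤ 1 := by
    by_contra hcon
    have hcon' := not_le.mp hcon
    nlinarith
  exact_mod_cast h5

/-- The Frobenius–Schur indicator of an irreducible character is `0`, `1` or `-1`. -/
theorem fs_cases [Fintype G] (χ : IrrCharacter G) :
    (Nat.card G : ℂ)⁻¹ * ∑ g : G, (χ : G → ℂ) (g * g) = 0 ∨
    (Nat.card G : ℂ)⁻¹ * ∑ g : G, (χ : G → ℂ) (g * g) = 1 ∨
    (Nat.card G : ℂ)⁻¹ * ∑ g : G, (χ : G → ℂ) (g * g) = -1 := by
  obtain ⟨r₁, r₂, h12, h1, -, h2⟩ := irr_fs_decomp χ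
  rw [h2]
  interval_cases r₁
  · have : r₂ = 0 := by omega
    subst this
    left; norm_num
  · interval_cases r₂
    · right; left; norm_num
    · right; right; norm_num

/-- An irreducible character with nonzero Frobenius–Schur indicator is real valued. -/
theorem fs_ne_zero_real [Fintype G] (χ : IrrCharacter G)
    (h : (Nat.card G : ℂ)⁻¹ * ∑ g : G, (χ : G → ℂ) (g * g) ≠ 0) (g : G) :
    ((χ : G → ℂ) g).im = 0 := by
  obtain ⟨r₁, r₂, h12, h1, hsum, h2⟩ := irr_fs_decomp χ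
  have hr1 : r₁ = 1 := by
    interval_cases r₁
    · exfalso
      have : r₂ = 0 := by omega
      subst this
      apply h
      rw [h2]
      norm_num
    · rfl
  subst hr1
  have horth := irr_sum_mul_conj χ
  -- `∑ (normSq - re(χ²)) = 0`, termwise nonnegative and equal to `2 im²`
  have hterm : ∀ x : G, ((χ : G → ℂ) x * (starRingEnd ℂ) ((χ : G → ℂ) x)).re -
      ((χ : G → ℂ) x * (χ : G → ℂ) x).re = 2 * ((χ : G → ℂ) x).im ^ 2 := by
    intro x
    rw [Complex.mul_conj, Complex.ofReal_re, Complex.mul_re, Complex.normSq_apply]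
    ring
  have hzero : ∑ x : G, 2 * ((χ : G → ℂ) x).im ^ 2 = 0 := by
    have : ∑ x : G, 2 * ((χ : G → ℂ) x).im ^ 2 =
        (∑ x : G, (χ : G → ℂ) x * (starRingEnd ℂ) ((χ : G → ℂ) x)).re -
        (∑ x : G, (χ : G → ℂ) x * (χ : G → ℂ) x).re := by
      rw [Complex.re_sum, Complex.re_sum, ← Finset.sum_sub_distrib]
      exact Finset.sum_congr rfl (fun x _ => (hterm x).symm)
    rw [this, horth, hsum]
    simp
  have h0 := (Finset.sum_eq_zero_iff_of_nonneg (fun x _ => by positivity)).mp hzero g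
    (Finset.mem_univ g)
  have : ((χ : G → ℂ) g).im ^ 2 = 0 := by linarith
  exact pow_eq_zero_iff (two_ne_zero) |>.mp this

/-- A real-valued irreducible character has Frobenius–Schur indicator `1` or `-1`. -/
theorem fs_of_real [Fintype G] (χ : IrrCharacter G) (hreal : ∀ g : G, ((χ : G → ℂ) g).im = 0) :
    (Nat.card G : ℂ)⁻¹ * ∑ g : G, (χ : G → ℂ) (g * g) = 1 ∨
    (Nat.card G : ℂ)⁻¹ * ∑ g : G, (χ : G → ℂ) (g * g) = -1 := by
  obtain ⟨r₁, r₂, h12, h1, hsum, h2⟩ := irr_fs_decomp χ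
  have horth := irr_sum_mul_conj χ
  have hconj : ∀ g : G, (starRingEnd ℂ) ((χ : G → ℂ) g) = (χ : G → ℂ) g := by
    intro g
    exact Complex.conj_eq_iff_im.mpr (hreal g)
  simp only [hconj] at horth
  rw [hsum] at horth
  have hG0 : (Nat.card G : ℂ) ≠ 0 := card_ne_zero
  have hr1 : (r₁ : ℂ) = 1 := by
    have := mul_right_cancel₀ hG0 (horth.trans (one_mul _).symm)
    exact this
  have hr1' : r₁ = 1 := by exact_mod_cast hr1
  subst hr1'
  rw [h2]
  interval_cases r₂
  · left; norm_num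
  · right; norm_num

end Cfsg.Agent.Lead.FS
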