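import Mathlib

/-!
# Two counting lemmas for automorphisms of 3-power order of 2-groups
-/

set_option autoImplicit false
set_option linter.style.haveILetI false

namespace Cfsg.Agent.Lead.Ord3

/-- a permutation of `3`-power order whose cube has no fixed point moves a multiple of `9`
points. -/
theorem nine_dvd_card {S : Type*} [Fintype S] (σ : Equiv.Perm S) (n : ℕ)
    (hσ : σ ^ 3 ^ n = 1) (hfix : ∀ x, (σ ^ 3) x ≠ x) : 9 ∣ Fintype.card S := by
  classical
  haveI : Fintype (Subgroup.zpowers σ) := Fintype.ofFinite _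
  rw [MulAction.card_eq_sum_card_group_div_card_stabilizer (Subgroup.zpowers σ) S]
  apply Finset.dvd_sum
  intro ω _
  obtain ⟨x, hx⟩ : ∃ x : S, x = ω.out := ⟨_, rfl⟩
  rw [← hx]
  have hidx : Fintype.card (Subgroup.zpowers σ) /
      Fintype.card (MulAction.stabilizer (Subgroup.zpowers σ) x) =
      (MulAction.stabilizer (Subgroup.zpowers σ) x).index := by
    have h := Subgroup.card_mul_index (MulAction.stabilizer (Subgroup.zpowers σ) x)
    rw [← Nat.card_eq_fintype_card, ← Nat.card_eq_fintype_card, ← h]
    exact Nat.mul_div_cancel_left _ Nat.card_pos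
  rw [hidx]
  have h1 : (MulAction.stabilizer (Subgroup.zpowers σ) x).index ∣ 3 ^ n := by
    have h := Subgroup.index_dvd_card (MulAction.stabilizer (Subgroup.zpowers σ) x)
    rw [Nat.card_zpowers] at h
    exact h.trans (orderOf_dvd_of_pow_eq_one hσ)
  obtain ⟨j, -, hjeq⟩ := (Nat.dvd_prime_pow Nat.prime_three).1 h1
  haveI : (MulAction.stabilizer (Subgroup.zpowers σ) x).Normal := by
    refine ⟨fun a ha b => ?_⟩
    have hab : b * a * b⁻¹ = a := by
      obtain ⟨k, hk⟩ := Subgroup.mem_zpowers_iff.1 b.2
      obtain ⟨l, hl⟩ := Subgroup.mem_zpowers_iff.1 a.2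
      apply Subtype.ext
      show (b : Equiv.Perm S) * (a : Equiv.Perm S) * (b : Equiv.Perm S)⁻¹ = a
      rw [← hk, ← hl, ← zpow_add, ← zpow_neg, ← zpow_add]
      congr 1
      omega
    rw [hab]
    exact ha
  have hmem := Subgroup.pow_index_mem (MulAction.stabilizer (Subgroup.zpowers σ) x)
    (⟨σ, Subgroup.mem_zpowers σ⟩ : Subgroup.zpowers σ)
  rw [hjeq] at hmem ⊢
  have hj2 : 2 ≤ j := by
    by_contra hlt
    have hj : j = 0 ∨ j = 1 := by omega
    have h3 : (⟨σ, Subgroup.mem_zpowers σ⟩ : Subgroup.zpowers σ) ^ 3 ∈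
        MulAction.stabilizer (Subgroup.zpowers σ) x := by
      rcases hj with rfl | rfl
      · have : (⟨σ, Subgroup.mem_zpowers σ⟩ : Subgroup.zpowers σ) ∈
            MulAction.stabilizer (Subgroup.zpowers σ) x := by simpa using hmem
        exact Subgroup.pow_mem _ this 3
      · simpa using hmem
    have h4 : ((⟨σ, Subgroup.mem_zpowers σ⟩ : Subgroup.zpowers σ) ^ 3) • x = x :=
      MulAction.mem_stabilizer_iff.1 h3
    exact hfix x h4
  exact (show (9 : ℕ) = 3 ^ 2 by norm_num) ▸ pow_dvd_pow 3 hj2

/-- an automorphism of `3`-power order of a finite `2`-group that acts trivially modulo the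
Frattini subgroup is trivial. -/
theorem fix_of_frattini {P : Type*} [Group P] [Finite P] (hP : IsPGroup 2 P) (φ : MulAut P)
    (n : ℕ) (hφ : φ ^ 3 ^ n = 1) (h : ∀ x : P, x⁻¹ * φ x ∈ frattini P) : ∀ x : P, φ x = x := by
  classical
  haveI : Fact (Nat.Prime 3) := ⟨Nat.prime_three⟩
  haveI : Fintype (frattini P) := Fintype.ofFinite _
  have hchar : ∀ (ψ : MulAut P) (y : P), y ∈ frattini P → ψ y ∈ frattini P := by
    intro ψ y hy
    have h1 : (frattini P).map ψ.toMonoidHom = frattini P :=
      Subgroup.characteristic_iff_map_eq.1 inferInstance ψ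
    rw [← h1]
    exact Subgroup.mem_map_of_mem _ hy
  -- the fixed-point subgroup
  let C : Subgroup P :=
    { carrier := {x | φ x = x}
      mul_mem' := fun {a b} ha hb => by
        show φ (a * b) = a * b
        rw [map_mul, show φ a = a from ha, show φ b = b from hb]
      one_mem' := map_one φ
      inv_mem' := fun {a} ha => by
        show φ a⁻¹ = a⁻¹
        rw [map_inv, show φ a = a from ha] }
  have hsup : C ⊔ frattini P = ⊤ := by
    rw [eq_top_iff]
    intro x _
    -- a permutation of the Frattini subgroup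
    have hx' : x⁻¹ * φ.symm x ∈ frattini P := by
      have h1 := h (φ.symm x)
      rw [MulEquiv.apply_symm_apply] at h1
      have h2 := (frattini P).inv_mem h1
      rw [mul_inv_rev, inv_inv] at h2
      exact h2
    let τ : Equiv.Perm (frattini P) :=
      { toFun := fun y => ⟨x⁻¹ * φ (x * y), by
          rw [map_mul, ← mul_assoc]
          exact (frattini P).mul_mem (h x) (hchar φ y y.2)⟩
        invFun := fun y => ⟨x⁻¹ * φ.symm (x * y), by
          rw [map_mul, ← mul_assoc]
          exact (frattini P).mul_mem hx' (hchar φ.symm y y.2)⟩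
        left_inv := fun y => Subtype.ext (by
          show x⁻¹ * φ.symm (x * (x⁻¹ * φ (x * y))) = y
          rw [mul_inv_cancel_left, MulEquiv.symm_apply_apply, inv_mul_cancel_left])
        right_inv := fun y => Subtype.ext (by
          show x⁻¹ * φ (x * (x⁻¹ * φ.symm (x * y))) = y
          rw [mul_inv_cancel_left, MulEquiv.apply_symm_apply, inv_mul_cancel_left]) }
    have hτ : ∀ (k : ℕ) (y : frattini P), (((τ ^ k) y : frattini P) : P) = x⁻¹ * (φ ^ k) (x * y) := by
      intro k
      induction k with
      | zero => intro y; simp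
      | succ k ih =>
        intro y
        rw [pow_succ', Equiv.Perm.mul_apply]
        show x⁻¹ * φ (x * (((τ ^ k) y : frattini P) : P)) = _
        rw [ih y, mul_inv_cancel_left, pow_succ', MulAut.mul_apply]
    have hτ1 : τ ^ 3 ^ n = 1 := by
      ext y
      rw [hτ, hφ]
      simp
    have hcard : ¬ 3 ∣ Fintype.card (frattini P) := by
      obtain ⟨b, hb⟩ := (IsPGroup.iff_card (p := 2) (G := frattini P)).1 (hP.to_subgroup _)
      rw [← Nat.card_eq_fintype_card, hb]
      intro h3
      have := (Nat.Prime.dvd_of_dvd_pow Nat.prime_three h3)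
      omega
    obtain ⟨y, hy⟩ := Equiv.Perm.exists_fixed_point_of_prime (p := 3) (n := n) hcard hτ1
    have hy' : x⁻¹ * φ (x * y) = y := congrArg Subtype.val hy
    have hxy : x * y ∈ C := by
      show φ (x * (y : P)) = x * y
      exact inv_mul_eq_iff_eq_mul.1 hy'
    have : x = (x * y) * (y : P)⁻¹ := by group
    rw [this]
    exact Subgroup.mul_mem_sup hxy ((frattini P).inv_mem y.2)
  have hC : C = ⊤ := frattini_nongenerating hsup
  intro x
  have : x ∈ C := hC ▸ Subgroup.mem_top x
  exact this

end Cfsg.Agent.Lead.Ord3
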