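import Mathlib

set_option autoImplicit false
open Pointwise

namespace Cfsg.Agent.Lead

/-- Permuting subgroups: if `A B = B A` as sets then `A ⊔ B = A B` as sets. -/
theorem coe_sup_of_mul_comm {G : Type*} [Group G] (A B : Subgroup G)
    (h : (A : Set G) * (B : Set G) = (B : Set G) * (A : Set G)) :
    ((A ⊔ B : Subgroup G) : Set G) = (A : Set G) * (B : Set G) := by
  let S : Subgroup G :=
    { carrier := (A : Set G) * (B : Set G)
      mul_mem' := by
        rintro _ _ ⟨a, ha, b, hb, rfl⟩ ⟨a', ha', b', hb', rfl⟩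
        have h1 : b * a' ∈ (A : Set G) * (B : Set G) := by
          rw [h]; exact Set.mul_mem_mul hb ha'
        obtain ⟨a'', ha'', b'', hb'', h2⟩ := h1
        replace h2 : a'' * b'' = b * a' := h2
        refine ⟨a * a'', A.mul_mem ha ha'', b'' * b', B.mul_mem hb'' hb', ?_⟩
        calc a * a'' * (b'' * b') = a * (a'' * b'') * b' := by group
          _ = a * (b * a') * b' := by rw [h2]
          _ = a * b * (a' * b') := by group
      one_mem' := ⟨1, A.one_mem, 1, B.one_mem, mul_one 1⟩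
      inv_mem' := by
        rintro _ ⟨a, ha, b, hb, rfl⟩
        rw [h]
        exact ⟨b⁻¹, B.inv_mem hb, a⁻¹, A.inv_mem ha, by group⟩ }
  have hA : A ≤ S := fun a ha => ⟨a, ha, 1, B.one_mem, mul_one a⟩
  have hB : B ≤ S := fun b hb => ⟨1, A.one_mem, b, hb, one_mul b⟩
  apply Set.Subset.antisymm
  · intro x hx
    exact (sup_le hA hB : A ⊔ B ≤ S) hx
  · rintro _ ⟨a, ha, b, hb, rfl⟩
    exact Subgroup.mul_mem_sup ha hb

/-- Permuting subgroups of coprime orders: `|A ⊔ B| = |A| |B|`. -/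
theorem card_sup_of_mul_comm {G : Type*} [Group G] [Finite G] (A B : Subgroup G)
    (h : (A : Set G) * (B : Set G) = (B : Set G) * (A : Set G))
    (hcop : (Nat.card A).Coprime (Nat.card B)) :
    Nat.card (A ⊔ B : Subgroup G) = Nat.card A * Nat.card B := by
  apply Nat.le_antisymm
  · rw [← Nat.card_prod]
    apply Nat.card_le_card_of_surjective
      (fun x : A × B => (⟨x.1 * x.2, Subgroup.mul_mem_sup x.1.2 x.2.2⟩ : (A ⊔ B : Subgroup G)))
    rintro ⟨x, hx⟩
    have hx' : x ∈ ((A ⊔ B : Subgroup G) : Set G) := hx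
    rw [coe_sup_of_mul_comm A B h] at hx'
    obtain ⟨a, ha, b, hb, rfl⟩ := hx'
    exact ⟨(⟨a, ha⟩, ⟨b, hb⟩), rfl⟩
  · apply Nat.le_of_dvd Nat.card_pos
    exact Nat.Coprime.mul_dvd_of_dvd_of_dvd hcop (Subgroup.card_dvd_of_le le_sup_left)
      (Subgroup.card_dvd_of_le le_sup_right)

end Cfsg.Agent.Lead
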