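import Mathlib
import Cfsg.Agent.Lead.XS14

/-!
# Elementary abelian 2-groups: hyperplanes, transvections, automorphisms (lead)
-/

set_option autoImplicit false
set_option linter.style.haveILetI false

namespace Cfsg.Agent.Lead.XS

variable {A : Type*} [Group A]

/-- An index-two subgroup containing `c` but not `a`. -/
theorem ea_hyper [Finite A] (hcomm : ∀ x y : A, x * y = y * x) (hsq : ∀ x : A, x * x = 1)
    (c a : A) (ha1 : a ≠ 1) (hac : a ≠ c) :
    ∃ H : Subgroup A, H.index = 2 ∧ c ∈ H ∧ a ∉ H := by
  classical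
  have h0 : c ∈ Subgroup.zpowers c ∧ a ∉ Subgroup.zpowers c := by
    refine ⟨Subgroup.mem_zpowers c, fun h => ?_⟩
    rcases zp_cases c (hsq c) a h with h1 | h1
    · exact ha1 h1
    · exact hac h1
  obtain ⟨H, -, hmax⟩ :=
    Finite.exists_le_maximal (p := fun H : Subgroup A => c ∈ H ∧ a ∉ H) h0
  obtain ⟨⟨hcH, haH⟩, hmax'⟩ := hmax
  refine ⟨H, ?_, hcH, haH⟩
  rw [Subgroup.index_eq_two_iff]
  refine ⟨a, fun b => ?_⟩
  by_cases hb : b ∈ H
  · refine Or.inr ⟨hb, fun h => haH ?_⟩
    have e : a = b⁻¹ * (b * a) := by group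
    rw [e]
    exact H.mul_mem (H.inv_mem hb) h
  · refine Or.inl ⟨?_, hb⟩
    by_contra hba
    let H' : Subgroup A :=
      { carrier := {y | y ∈ H ∨ y * b ∈ H}
        mul_mem' := by
          intro y₁ y₂ h1 h2
          rcases h1 with h1 | h1 <;> rcases h2 with h2 | h2
          · exact Or.inl (H.mul_mem h1 h2)
          · refine Or.inr ?_
            rw [mul_assoc]
            exact H.mul_mem h1 h2
          · refine Or.inr ?_
            have e : y₁ * y₂ * b = y₁ * b * y₂ := by
              rw [mul_assoc, hcomm y₂ b, ← mul_assoc]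
            rw [e]
            exact H.mul_mem h1 h2
          · refine Or.inl ?_
            have e : y₁ * y₂ = (y₁ * b) * (y₂ * b) := by
              calc y₁ * y₂ = y₁ * y₂ * (b * b) := by rw [hsq b, mul_one]
                _ = y₁ * (y₂ * b) * b := by group
                _ = y₁ * (b * y₂) * b := by rw [hcomm y₂ b]
                _ = (y₁ * b) * (y₂ * b) := by group
            rw [e]
            exact H.mul_mem h1 h2
        one_mem' := Or.inl H.one_mem
        inv_mem' := by
          intro y h
          have e : y⁻¹ = y := inv_eq_of_mul_eq_one_left (hsq y)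
          rw [e]
          exact h }
    have hHH' : H ≤ H' := fun y hy => Or.inl hy
    have hbH' : b ∈ H' := Or.inr (by rw [hsq b]; exact H.one_mem)
    have hp' : c ∈ H' ∧ a ∉ H' := by
      refine ⟨hHH' hcH, fun h => ?_⟩
      rcases h with h | h
      · exact haH h
      · apply hba
        rw [hcomm]
        exact h
    exact hb (hmax' hp' hHH' hbH')

/-- The transvection with axis `H` and centre `c ∈ H`. -/
theorem ea_tv (hcomm : ∀ x y : A, x * y = y * x) (hsq : ∀ x : A, x * x = 1)
    (H : Subgroup A) (hH : H.index = 2) (c : A) (hc : c ∈ H) :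
    ∃ φ : A ≃* A, (∀ x ∈ H, φ x = x) ∧ (∀ x, x ∉ H → φ x = x * c) := by
  classical
  let f : A → A := fun x => if x ∈ H then x else x * c
  have hf1 : ∀ x ∈ H, f x = x := fun x hx => if_pos hx
  have hf2 : ∀ x, x ∉ H → f x = x * c := fun x hx => if_neg hx
  have hmem : ∀ x, f x ∈ H → x ∈ H := by
    intro x h
    by_contra hx
    rw [hf2 x hx] at h
    apply hx
    have e : x = x * c * c⁻¹ := by group
    rw [e]
    exact H.mul_mem h (H.inv_mem hc)
  have hinv : ∀ x, f (f x) = x := by
    intro x
    by_cases hx : x ∈ H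
    · rw [hf1 x hx, hf1 x hx]
    · have h1 : f x ∉ H := fun h => hx (hmem x h)
      rw [hf2 (f x) h1, hf2 x hx, mul_assoc, hsq c, mul_one]
  have hmul : ∀ x y, f (x * y) = f x * f y := by
    intro x y
    have key := Subgroup.mul_mem_iff_of_index_two hH (a := x) (b := y)
    by_cases hx : x ∈ H <;> by_cases hy : y ∈ H
    · rw [hf1 x hx, hf1 y hy, hf1 _ (H.mul_mem hx hy)]
    · have hxy : x * y ∉ H := fun h => hy ((key.mp h).mp hx)
      rw [hf1 x hx, hf2 y hy, hf2 _ hxy, mul_assoc]
    · have hxy : x * y ∉ H := fun h => hx ((key.mp h).mpr hy)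
      rw [hf2 x hx, hf1 y hy, hf2 _ hxy, mul_assoc, mul_assoc, hcomm y c]
    · have hxy : x * y ∈ H := key.mpr ⟨fun h => (hx h).elim, fun h => (hy h).elim⟩
      rw [hf2 x hx, hf2 y hy, hf1 _ hxy]
      symm
      calc x * c * (y * c) = x * (c * y) * c := by group
        _ = x * (y * c) * c := by rw [hcomm c y]
        _ = x * y * (c * c) := by group
        _ = x * y := by rw [hsq c, mul_one]
  exact ⟨{ toFun := f, invFun := f, left_inv := hinv, right_inv := hinv, map_mul' := hmul },
    hf1, hf2⟩

/-- The automorphism group is transitive on non-identity elements. -/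
theorem ea_trans [Finite A] (hcomm : ∀ x y : A, x * y = y * x) (hsq : ∀ x : A, x * x = 1)
    (a b : A) (ha : a ≠ 1) (hb : b ≠ 1) : ∃ φ : A ≃* A, φ a = b := by
  by_cases hab : a = b
  · exact ⟨MulEquiv.refl A, hab⟩
  · have hac : a ≠ a * b := by
      intro h
      apply hb
      have h1 : a * 1 = a * b := by rw [mul_one]; exact h
      exact (mul_left_cancel h1).symm
    obtain ⟨H, hH, hcH, haH⟩ := ea_hyper hcomm hsq (a * b) a ha hac
    obtain ⟨φ, -, h2⟩ := ea_tv hcomm hsq H hH (a * b) hcH
    refine ⟨φ, ?_⟩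
    rw [h2 a haH, ← mul_assoc, hsq a, one_mul]

/-- The automorphism group of an elementary abelian group of order `2 ^ n` is `GL_n(2)`. -/
theorem ea_gl {B : Type*} [CommGroup B] [Finite B] (hsq : ∀ x : B, x * x = 1) (n : ℕ)
    (hcard : Nat.card B = 2 ^ n) : Nonempty (MulAut B ≃* GL (Fin n) (ZMod 2)) := by
  classical
  have h2 : ∀ x : Additive B, 2 • x = 0 := by
    intro x
    rw [two_nsmul]
    exact congrArg Additive.ofMul (hsq (Additive.toMul x))
  letI : Module (ZMod 2) (Additive B) := AddCommGroup.zmodModule h2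
  have hfr : Module.finrank (ZMod 2) (Additive B) = n := by
    have h1 := Module.natCard_eq_pow_finrank (K := ZMod 2) (V := Additive B)
    have h3 : Nat.card (Additive B) = Nat.card B := rfl
    rw [h3, hcard, Nat.card_zmod] at h1
    exact (Nat.pow_right_injective (le_refl 2) h1).symm
  let b := Module.finBasisOfFinrankEq (ZMod 2) (Additive B) hfr
  let e1 : MulAut B ≃* (Additive B ≃ₗ[ZMod 2] Additive B) :=
    { toFun := fun f => AddEquiv.toLinearEquiv (MulEquiv.toAdditive f)
        (fun c x => ZMod.map_smul (MulEquiv.toAdditive f) c x)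
      invFun := fun l => MulEquiv.toAdditive.symm l.toAddEquiv
      left_inv := fun f => by ext x; rfl
      right_inv := fun l => by ext x; rfl
      map_mul' := fun f g => by ext x; rfl }
  exact ⟨e1.trans ((LinearMap.GeneralLinearGroup.generalLinearEquiv (ZMod 2)
    (Additive B)).symm.trans (Matrix.GeneralLinearGroup.toLin' b).symm)⟩

end Cfsg.Agent.Lead.XS
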