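import Mathlib
import Cfsg.Agent.Lead.XS24

/-!
# Elementary abelian 2-groups: generalized transvections, homomorphisms to a group of order two (lead)
-/

set_option autoImplicit false
set_option linter.style.haveILetI false

namespace Cfsg.Agent.Lead.XS

variable {A : Type*} [Group A]

/-- The transvection defined by a "parity" predicate `P` and a centre `c` with `P c`. -/
theorem ea_tvP (hcomm : ∀ x y : A, x * y = y * x) (hsq : ∀ x : A, x * x = 1)
    (P : A → Prop) (hP : ∀ x y : A, P (x * y) ↔ (P x ↔ P y)) (c : A) (hc : P c) :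
    ∃ φ : A ≃* A, (∀ x, P x → φ x = x) ∧ (∀ x, ¬ P x → φ x = x * c) := by
  classical
  let f : A → A := fun x => if P x then x else x * c
  have hf1 : ∀ x, P x → f x = x := fun x hx => if_pos hx
  have hf2 : ∀ x, ¬ P x → f x = x * c := fun x hx => if_neg hx
  have hmem : ∀ x, P (f x) → P x := by
    intro x h
    by_contra hx
    rw [hf2 x hx] at h
    exact hx (((hP x c).mp h).mpr hc)
  have hinv : ∀ x, f (f x) = x := by
    intro x
    by_cases hx : P x
    · rw [hf1 x hx, hf1 x hx]
    · have h1 : ¬ P (f x) := fun h => hx (hmem x h)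
      rw [hf2 (f x) h1, hf2 x hx, mul_assoc, hsq c, mul_one]
  have hmul : ∀ x y, f (x * y) = f x * f y := by
    intro x y
    have key := hP x y
    by_cases hx : P x <;> by_cases hy : P y
    · rw [hf1 x hx, hf1 y hy, hf1 _ (key.mpr ⟨fun _ => hy, fun _ => hx⟩)]
    · have hxy : ¬ P (x * y) := fun h => hy ((key.mp h).mp hx)
      rw [hf1 x hx, hf2 y hy, hf2 _ hxy, mul_assoc]
    · have hxy : ¬ P (x * y) := fun h => hx ((key.mp h).mpr hy)
      rw [hf2 x hx, hf1 y hy, hf2 _ hxy, mul_assoc, mul_assoc, hcomm y c]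
    · have hxy : P (x * y) := key.mpr ⟨fun h => (hx h).elim, fun h => (hy h).elim⟩
      rw [hf2 x hx, hf2 y hy, hf1 _ hxy]
      symm
      calc x * c * (y * c) = x * (c * y) * c := by group
        _ = x * (y * c) * c := by rw [hcomm c y]
        _ = x * y * (c * c) := by group
        _ = x * y := by rw [hsq c, mul_one]
  exact ⟨{ toFun := f, invFun := f, left_inv := hinv, right_inv := hinv, map_mul' := hmul },
    hf1, hf2⟩

/-- The number of homomorphisms from an elementary abelian 2-group to a group of order 2. -/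
theorem ea_hom_card' {B : Type*} [CommGroup B] [Finite B] (hsq : ∀ x : B, x * x = 1)
    {Z' : Type*} [Group Z'] (hZ : Nat.card Z' = 2) :
    Nat.card (B →* Z') = Nat.card B := by
  classical
  haveI : Fact (Nat.Prime 2) := ⟨Nat.prime_two⟩
  have h2 : ∀ x : Additive B, 2 • x = 0 := by
    intro x
    rw [two_nsmul]
    exact congrArg Additive.ofMul (hsq (Additive.toMul x))
  letI : Module (ZMod 2) (Additive B) := AddCommGroup.zmodModule h2
  have hZ2 : Nat.card (Multiplicative (ZMod 2)) = 2 := by
    show Nat.card (ZMod 2) = 2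
    exact Nat.card_zmod 2
  let e0 : Z' ≃* Multiplicative (ZMod 2) := mulEquivOfPrimeCardEq hZ hZ2
  let e1 : (B →* Z') ≃ (B →* Multiplicative (ZMod 2)) := MulEquiv.monoidHomCongrRightEquiv e0
  let e2 : (B →* Multiplicative (ZMod 2)) ≃ (Additive B →+ ZMod 2) := MonoidHom.toAdditiveLeft
  let e3 : (Additive B →+ ZMod 2) ≃ (Additive B →ₗ[ZMod 2] ZMod 2) :=
    (AddMonoidHom.toZModLinearMapEquiv 2).toEquiv
  have h3 : Nat.card (B →* Z') = Nat.card (Module.Dual (ZMod 2) (Additive B)) :=
    Nat.card_congr (e1.trans (e2.trans e3))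
  have h4 := Module.natCard_eq_pow_finrank (K := ZMod 2) (V := Module.Dual (ZMod 2) (Additive B))
  have h5 := Module.natCard_eq_pow_finrank (K := ZMod 2) (V := Additive B)
  rw [Subspace.dual_finrank_eq] at h4
  rw [h3, h4, ← h5]
  rfl

theorem ea_hom_card {B : Type*} [Group B] [Finite B] (hcomm : ∀ x y : B, x * y = y * x)
    (hsq : ∀ x : B, x * x = 1) {Z' : Type*} [Group Z'] (hZ : Nat.card Z' = 2) :
    Nat.card (B →* Z') = Nat.card B := by
  letI : CommGroup B := { (inferInstance : Group B) with mul_comm := hcomm }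
  exact ea_hom_card' hsq hZ

theorem ea_gl' {B : Type*} [Group B] [Finite B] (hcomm : ∀ x y : B, x * y = y * x)
    (hsq : ∀ x : B, x * x = 1) (n : ℕ) (hcard : Nat.card B = 2 ^ n) :
    Nonempty (MulAut B ≃* GL (Fin n) (ZMod 2)) := by
  letI : CommGroup B := { (inferInstance : Group B) with mul_comm := hcomm }
  exact ea_gl hsq n hcard

end Cfsg.Agent.Lead.XS
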